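import Cfsg.Agent.Lib.Helper21.FirstMain

set_option autoImplicit false
open Cfsg
open scoped ComplexConjugate
open Cfsg.Agent.Lib.Helper20 Cfsg.Agent.Lib.Helper81 Cfsg.Agent.Lib.Helper21

namespace Cfsg.Agent.Lib.Helper84

variable {G : Type*} [Group G] [Fintype G] {p : ℕ} {M : Ideal AlgInt}

/-- An element of `ZR`, idempotent modulo `ZM`, all of whose central character values lie in
the local ideal, lies in `ZM`. -/
theorem mem_ZM_of_idem (hM : IsPModular p M) (f : ZR G hM) (hidem : f * f - f ∈ ZM G hM)
    (hf : ∀ χ : IrrCharacter G, MemLocalIdeal M (f.1 χ)) : f ∈ ZM G hM := by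
  classical
  have : Finite (IrrCharacter G) := finite_irrCharacter
  have : Fintype (IrrCharacter G) := Fintype.ofFinite _
  have h1 := pow_mem_ZM hM f hf
  have h4 : IsIdempotentElem (Ideal.Quotient.mk (ZM G hM) f) := by
    show _ * _ = _
    rw [← map_mul, ← sub_eq_zero, ← map_sub, Ideal.Quotient.eq_zero_iff_mem]
    exact hidem
  rcases Nat.eq_zero_or_pos (Fintype.card (IrrCharacter G)) with h0 | hcard
  · have hne : IsEmpty (IrrCharacter G) := Fintype.card_eq_zero_iff.1 h0
    have : f = 0 := by
      apply Subtype.ext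
      funext χ
      exact (hne.false χ).elim
    rw [this]; exact zero_mem _
  · obtain ⟨n, hn⟩ : ∃ n, Fintype.card (IrrCharacter G) = n + 1 :=
      ⟨_, (Nat.succ_pred_eq_of_pos hcard).symm⟩
    rw [hn, ← Ideal.Quotient.eq_zero_iff_mem, map_pow, h4.pow_succ_eq,
      Ideal.Quotient.eq_zero_iff_mem] at h1
    exact h1

/-- The block idempotent as an element of `ZR`. -/
noncomputable def zblock (hM : IsPModular p M) (b : Set (IrrCharacter G)) (hb : IsPBlock M b) :
    ZR G hM := zmk hM (blockCoeff b) (blockCoeff_classFunction b) (osima hM b hb)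

open Classical in
theorem zblock_apply (hM : IsPModular p M) (b : Set (IrrCharacter G)) (hb : IsPBlock M b)
    (χ : IrrCharacter G) : (zblock hM b hb).1 χ = if χ ∈ b then 1 else 0 := by
  rw [zblock, zmk_apply, omega_blockCoeff]

theorem zblock_mul_self (hM : IsPModular p M) (b : Set (IrrCharacter G)) (hb : IsPBlock M b) :
    zblock hM b hb * zblock hM b hb = zblock hM b hb := by
  classical
  apply Subtype.ext
  funext χ
  show (zblock hM b hb).1 χ * (zblock hM b hb).1 χ = (zblock hM b hb).1 χ
  rw [zblock_apply]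
  split_ifs <;> simp

open Classical in
theorem sum_zblock (hM : IsPModular p M) [Fintype (Set (IrrCharacter G))] :
    (∑ b : Set (IrrCharacter G), if hb : IsPBlock M b then zblock hM b hb else 0) = 1 := by
  apply Subtype.ext
  funext χ
  have h9 : ((∑ b : Set (IrrCharacter G), if hb : IsPBlock M b then zblock hM b hb else 0 :
      ZR G hM) : IrrCharacter G → ℂ) = ∑ b : Set (IrrCharacter G),
        ((if hb : IsPBlock M b then zblock hM b hb else 0 : ZR G hM) : IrrCharacter G → ℂ) :=
    map_sum (ZR G hM).subtype _ _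
  rw [h9, Finset.sum_apply]
  rw [Finset.sum_eq_single (blockOf M (χ : G → ℂ))]
  · have hb0 : IsPBlock M (blockOf M (χ : G → ℂ)) := ⟨χ, rfl⟩
    rw [dif_pos hb0]
    show (zblock hM _ hb0).1 χ = 1
    rw [zblock_apply, if_pos (mem_blockOf_self hM χ)]
  · intro b _ hne
    by_cases hb : IsPBlock M b
    · rw [dif_pos hb]
      show (zblock hM _ hb).1 χ = 0
      rw [zblock_apply, if_neg]
      intro hχ
      exact hne (isPBlock_eq_blockOf hM hb hχ)
    · rw [dif_neg hb]; rfl
  · intro h; exact absurd (Finset.mem_univ _) h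

/-- Central characters of characters in the same block agree on locally integral class
functions. -/
theorem omega_sub_of_mem_block (hM : IsPModular p M) {b : Set (IrrCharacter G)}
    (hb : IsPBlock M b) {ξ ξ' : IrrCharacter G} (hξ : ξ ∈ b) (hξ' : ξ' ∈ b) {y : G → ℂ}
    (hy : IsClassFunction G y) (hyR : ∀ g, MemLocalRing M (y g)) :
    MemLocalIdeal M (omega (ξ : G → ℂ) y - omega (ξ' : G → ℂ) y) := by
  classical
  have : Fintype (ConjClasses G) := Fintype.ofFinite _
  rw [omega_eq_sum_classes (irr_classFunction ξ) hy, omega_eq_sum_classes (irr_classFunction ξ') hy,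
    ← Finset.sum_sub_distrib]
  apply memLocalIdeal_sum hM
  intro C _
  rw [← mul_sub]
  exact memLocalIdeal_mul_left hM (hyR _) (isPBlock_sameBlock hM hb hξ hξ' _)

/-- A class function which is idempotent modulo the local ideal and has a unit coefficient at
`g₀`: some block idempotent occurring in it has a unit coefficient at `g₀`. -/
theorem exists_block_of_idem (hM : IsPModular p M) (y : G → ℂ) (hy : IsClassFunction G y)
    (hyR : ∀ g, MemLocalRing M (y g)) (hidem : ∀ g, MemLocalIdeal M (conv y y g - y g))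
    (g₀ : G) (hg₀ : ¬ MemLocalIdeal M (y g₀)) :
    ∃ b : Set (IrrCharacter G), IsPBlock M b ∧
      (∀ ξ ∈ b, ¬ MemLocalIdeal M (omega (ξ : G → ℂ) y)) ∧
      ¬ MemLocalIdeal M (blockCoeff b g₀) := by
  classical
  have : Finite (IrrCharacter G) := finite_irrCharacter
  have : Fintype (IrrCharacter G) := Fintype.ofFinite _
  have : Fintype (Set (IrrCharacter G)) := Fintype.ofFinite _
  set f := zmk hM y hy hyR with hf
  have h2 : f * f - f ∈ ZM G hM := by
    intro g
    have h3 : zrep hM (f * f - f) = conv y y - y := by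
      apply zrep_eq
      · intro a c
        simp only [Pi.sub_apply]
        rw [conv_classFunction hy hy, hy]
      · intro χ
        rw [omega_sub, omega_conv χ.2 _ _ hy]
        rfl
    rw [h3]
    exact hidem g
  -- some block component has a unit coefficient
  have h3 : ∃ (b : Set (IrrCharacter G)) (hb : IsPBlock M b),
      ¬ MemLocalIdeal M (zrep hM (f * zblock hM b hb) g₀) := by
    by_contra hcon
    push Not at hcon
    apply hg₀
    have h4 : f = ∑ b : Set (IrrCharacter G),
        f * (if hb : IsPBlock M b then zblock hM b hb else 0) := by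
      rw [← Finset.mul_sum, sum_zblock, mul_one]
    have h5 : MemLocalIdeal M (zrep hM (∑ b : Set (IrrCharacter G),
        f * (if hb : IsPBlock M b then zblock hM b hb else 0)) g₀) := by
      apply Finset.sum_induction _ (fun h : ZR G hM => MemLocalIdeal M (zrep hM h g₀))
      · intro a c ha hc
        rw [zrep_add]
        exact memLocalIdeal_add hM ha hc
      · rw [zrep_zero]; exact memLocalIdeal_zero hM
      · intro b _
        by_cases hb : IsPBlock M b
        · rw [dif_pos hb]; exact hcon b hb
        · rw [dif_neg hb, mul_zero, zrep_zero]; exact memLocalIdeal_zero hM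
    rw [← h4, hf, zrep_zmk] at h5
    exact h5
  obtain ⟨b, hb, hbu⟩ := h3
  set e := zblock hM b hb with he
  have hee : e * e = e := zblock_mul_self hM b hb
  have h4 : (f * e) * (f * e) - f * e ∈ ZM G hM := by
    have : (f * e) * (f * e) - f * e = (f * f - f) * e := by
      calc (f * e) * (f * e) - f * e = f * f * (e * e) - f * e := by ring
        _ = (f * f - f) * e := by rw [hee]; ring
    rw [this]
    exact Ideal.mul_mem_right _ _ h2
  have h5 : ∃ ξ : IrrCharacter G, ¬ MemLocalIdeal M ((f * e).1 ξ) := by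
    by_contra hcon
    push Not at hcon
    exact hbu (mem_ZM_of_idem hM _ h4 hcon g₀)
  obtain ⟨ξ, hξ⟩ := h5
  have h6 : (f * e).1 ξ = omega (ξ : G → ℂ) y * (if ξ ∈ b then 1 else 0) := by
    show f.1 ξ * e.1 ξ = _
    rw [he, zblock_apply]; rfl
  have hξb : ξ ∈ b := by
    by_contra hn
    rw [h6, if_neg hn, mul_zero] at hξ
    exact hξ (memLocalIdeal_zero hM)
  rw [h6, if_pos hξb, mul_one] at hξ
  have hunit : ∀ ξ' ∈ b, ¬ MemLocalIdeal M (omega (ξ' : G → ℂ) y) := by
    intro ξ' hξ' hcon
    apply hξ
    have := memLocalIdeal_add hM (omega_sub_of_mem_block hM hb hξb hξ' hy hyR) hcon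
    rwa [sub_add_cancel] at this
  refine ⟨b, hb, hunit, ?_⟩
  -- `e - f e` is an idempotent killed by all central characters
  have h7 : (e - f * e) * (e - f * e) - (e - f * e) ∈ ZM G hM := by
    have : (e - f * e) * (e - f * e) - (e - f * e) = (f * f - f) * e := by
      calc (e - f * e) * (e - f * e) - (e - f * e)
          = (e * e) * (1 - 2 * f + f * f) - (e - f * e) := by ring
        _ = (f * f - f) * e := by rw [hee]; ring
    rw [this]
    exact Ideal.mul_mem_right _ _ h2
  have h8 : ∀ χ : IrrCharacter G, MemLocalIdeal M ((e - f * e).1 χ) := by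
    intro χ
    have h9 : (e - f * e).1 χ = (if χ ∈ b then 1 else 0) - omega (χ : G → ℂ) y *
        (if χ ∈ b then 1 else 0) := by
      show e.1 χ - f.1 χ * e.1 χ = _
      rw [he, zblock_apply]; rfl
    rw [h9]
    by_cases hχ : χ ∈ b
    · rw [if_pos hχ, mul_one]
      -- ω(y)² ≡ ω(y), unit
      have h10 : MemLocalIdeal M (omega (χ : G → ℂ) (conv y y - y)) :=
        omega_memLocalIdeal hM χ (by
          intro a c
          simp only [Pi.sub_apply]
          rw [conv_classFunction hy hy, hy]) hidem
      rw [omega_sub, omega_conv χ.2 _ _ hy] at h10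
      have hR : MemLocalRing M (omega (χ : G → ℂ) y) := omega_memLocalRing hM χ hy hyR
      have h11 : omega (χ : G → ℂ) y * omega (χ : G → ℂ) y - omega (χ : G → ℂ) y
          = omega (χ : G → ℂ) y * (omega (χ : G → ℂ) y - 1) := by ring
      rw [h11] at h10
      rcases (memLocalIdeal_mul_iff hM hR (memLocalRing_sub hM hR (memLocalRing_one hM))).1 h10
        with h12 | h12
      · exact absurd h12 (hunit χ hχ)
      · have := memLocalIdeal_neg h12
        rwa [neg_sub] at this
    · rw [if_neg hχ, mul_zero, sub_zero]; exact memLocalIdeal_zero hM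
  have h9 := mem_ZM_of_idem hM _ h7 h8 g₀
  have h10 : zrep hM (e - f * e) = zrep hM e - zrep hM (f * e) := by
    have : zrep hM e = zrep hM ((e - f * e) + f * e) := by rw [sub_add_cancel]
    rw [this, zrep_add, add_sub_cancel_right]
  rw [h10, Pi.sub_apply] at h9
  have h11 : zrep hM e = blockCoeff b := zrep_zmk hM _ _ _
  rw [h11] at h9
  intro hcon
  apply hbu
  have := memLocalIdeal_sub hM hcon h9
  rwa [sub_sub_cancel] at this

/-- Existence of a block `b` of `H` inducing `B` with `a_b(g)` a unit, when `a_B(g)` is a unit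
for some `g ∈ C_G(P)`. -/
theorem exists_induced_unit_coeff [Fact p.Prime] (hM : IsPModular p M) {P H : Subgroup G}
    (hP : IsPGroup p P) (hPH : P ≤ H) (hCH : Subgroup.centralizer (P : Set G) ≤ H)
    (hHN : H ≤ Subgroup.normalizer (P : Set G)) (B : Set (IrrCharacter G)) (hB : IsPBlock M B)
    (g : G) (hg : g ∈ Subgroup.centralizer (P : Set G))
    (hgB : ¬ MemLocalIdeal M (blockCoeff B g)) :
    ∃ b : Set (IrrCharacter H), IsInducedBlock M H b B ∧
      ¬ MemLocalIdeal M (blockCoeff b ⟨g, hCH hg⟩) := by
  classical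
  have : Fintype H := Fintype.ofFinite _
  set y := trunc P H (blockCoeff B) with hy
  have hy1 : IsClassFunction H y := trunc_classFunction hHN (blockCoeff_classFunction B)
  have hy2 : ∀ h, MemLocalRing M (y h) := trunc_memLocalRing hM P H (osima hM B hB)
  have hy3 : ∀ h, MemLocalIdeal M (conv y y h - y h) := by
    intro h
    have h1 := trunc_conv_sub_memLocalIdeal hM hP hCH (blockCoeff_classFunction B)
      (blockCoeff_classFunction B) (osima hM B hB) (osima hM B hB) h
    rw [conv_blockCoeff_self] at h1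
    have h2 := memLocalIdeal_neg h1
    rwa [neg_sub] at h2
  obtain ⟨b, hb, hbu, hbg⟩ := exists_block_of_idem hM y hy1 hy2 hy3 ⟨g, hCH hg⟩
    (by rw [hy, trunc_of_mem _ _ _ hg]; exact hgB)
  obtain ⟨ξ, hξb⟩ := isPBlock_nonempty hM hb
  have hξ := hbu ξ hξb
  obtain ⟨B', hB'⟩ := Cfsg.Agent.S0919.result p M hM P H hP hPH hCH hHN b hb
  obtain ⟨χ', hχ'⟩ := isPBlock_nonempty hM hB'.2.1
  have h1 := omega_res_sub_omega_of_induced hM hB' hξb hχ'
    (blockCoeff_classFunction B) (osima hM B hB)
  have h2 := omega_res_sub_trunc hM hP hPH hHN ξ (blockCoeff_classFunction B) (osima hM B hB)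
  have h3 : χ' ∈ B := by
    by_contra hcon
    rw [omega_blockCoeff, if_neg hcon, sub_zero] at h1
    apply hξ
    have := memLocalIdeal_sub hM h1 h2
    rwa [sub_sub_cancel] at this
  have h4 : B' = B := by
    rw [isPBlock_eq_blockOf hM hB'.2.1 hχ', isPBlock_eq_blockOf hM hB h3]
  exact ⟨b, h4 ▸ hB', hbg⟩

end Cfsg.Agent.Lib.Helper84
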