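import Cfsg.Agent.Lib.Helper81.ClassSum
import Cfsg.Agent.Lib.Helper5.Clifford

set_option autoImplicit false
open Cfsg
open scoped ComplexConjugate
open Cfsg.Agent.Lib.Helper20 Cfsg.Agent.Lib.Helper81 Cfsg.Agent.Lib.Helper5

namespace Cfsg.Agent.Lib.Helper84

variable {G : Type*} [Group G] [Fintype G] {N : Subgroup G} [Fintype N] {p : ℕ} {M : Ideal AlgInt}

/-- conjugation by `t` as a permutation of `Irr(N)` -/
noncomputable def conjIrrEquiv (hN : N.Normal) (t : G) : IrrCharacter N ≃ IrrCharacter N where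
  toFun φ := ⟨cjF hN φ t, isIrrCharacter_cjF hN φ.2 t⟩
  invFun φ := ⟨cjF hN φ t⁻¹, isIrrCharacter_cjF hN φ.2 t⁻¹⟩
  left_inv φ := by
    apply Subtype.ext
    show cjF hN (cjF hN φ t) t⁻¹ = φ
    rw [cjF_cjF, mul_inv_cancel, cjF_one]
  right_inv φ := by
    apply Subtype.ext
    show cjF hN (cjF hN φ t⁻¹) t = φ
    rw [cjF_cjF, inv_mul_cancel, cjF_one]

/-- a set of irreducible characters of `N` stable under `G`-conjugation -/
def ConjStable (hN : N.Normal) (O : Set (IrrCharacter N)) : Prop :=
  ∀ (t : G) (φ : IrrCharacter N), conjIrrEquiv hN t φ ∈ O ↔ φ ∈ O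

/-- the idempotent of a set of characters of `N`, extended by zero to `G` -/
noncomputable def extIdem (O : Set (IrrCharacter N)) : G → ℂ := fun g => by
  classical exact if h : g ∈ N then blockCoeff O ⟨g, h⟩ else 0

theorem extIdem_classFunction (hN : N.Normal) {O : Set (IrrCharacter N)} (hO : ConjStable hN O) :
    IsClassFunction G (extIdem O) := by
  classical
  have := finite_irrCharacter (G := N)
  have := Fintype.ofFinite (IrrCharacter N)
  intro g t
  by_cases hg : g ∈ N
  · have hg' : t * g * t⁻¹ ∈ N := hN.conj_mem g hg t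
    simp only [extIdem, dif_pos hg, dif_pos hg', blockCoeff]
    congr 1
    rw [finsum_mem_irr, finsum_mem_irr]
    conv_rhs => rw [← Equiv.sum_comp (conjIrrEquiv hN t)]
    apply Finset.sum_congr rfl; intro φ _
    simp only [hO t φ]
    by_cases hφ : φ ∈ O
    · rw [if_pos hφ, if_pos hφ]
      have h1 : ((conjIrrEquiv hN t φ : IrrCharacter N) : N → ℂ) ⟨g, hg⟩
          = (φ : N → ℂ) ⟨t * g * t⁻¹, hg'⟩ := rfl
      have h2 : ((conjIrrEquiv hN t φ : IrrCharacter N) : N → ℂ) 1 = (φ : N → ℂ) 1 := by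
        show (φ : N → ℂ) ⟨t * ((1 : N) : G) * t⁻¹, _⟩ = (φ : N → ℂ) 1
        have h3 : (⟨t * ((1 : N) : G) * t⁻¹, hN.conj_mem _ (1 : N).2 t⟩ : N) = 1 := by
          apply Subtype.ext
          simp
        rw [h3]
      rw [h1, h2]
    · rw [if_neg hφ, if_neg hφ]
  · have hg' : t * g * t⁻¹ ∉ N := by
      intro h
      apply hg
      have := hN.conj_mem _ h t⁻¹
      simpa [mul_assoc] using this
    simp only [extIdem, dif_neg hg, dif_neg hg']

theorem extIdem_memLocalRing (hM : IsPModular p M) (hpN : ¬ p ∣ Nat.card N)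
    (O : Set (IrrCharacter N)) (g : G) : MemLocalRing M (extIdem O g) := by
  classical
  have := finite_irrCharacter (G := N)
  have := Fintype.ofFinite (IrrCharacter N)
  by_cases hg : g ∈ N
  · simp only [extIdem, dif_pos hg, blockCoeff]
    rw [inv_mul_eq_div]
    apply memLocalRing_div hM _ (memLocalRing_natCast hM _)
    · rw [memLocalIdeal_natCast_iff hM]; exact hpN
    · rw [finsum_mem_irr]
      apply memLocalRing_sum hM
      intro φ _
      split_ifs
      · apply memLocalRing_mul hM
        · exact memLocalRing_of_isIntegral hM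
            (isCharacter_isIntegral (isCharacter_of_isIrrCharacter φ.2) _)
        · apply memLocalRing_of_isIntegral hM
          have := isCharacter_isIntegral (isCharacter_of_isIrrCharacter φ.2) (⟨g, hg⟩ : N)
          exact this.map (starRingEnd ℂ).toIntAlgHom
      · exact memLocalRing_zero hM
  · simp only [extIdem, dif_neg hg]
    exact memLocalRing_zero hM

theorem sum_extIdem_mul [Fintype (IrrCharacter N)] (O : Set (IrrCharacter N))
    [DecidablePred (· ∈ O)] (χ : G → ℂ) :
    ∑ g : G, extIdem O g * χ g =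
      ∑ φ : IrrCharacter N, if φ ∈ O then (φ : N → ℂ) 1 * classInner (fun n : N => χ n) (φ : N → ℂ)
        else 0 := by
  classical
  have h1 : ∑ g : G, extIdem O g * χ g = ∑ n : N, blockCoeff O n * χ n := by
    have h2 : ∑ n : N, blockCoeff O n * χ n = ∑ n : N, extIdem O (n : G) * χ n := by
      apply Finset.sum_congr rfl; intro n _
      simp only [extIdem, dif_pos n.2]
    rw [h2, Finset.sum_subtype (Finset.univ.filter (· ∈ N)) (p := (· ∈ N)) (by simp)
      (fun g => extIdem O g * χ g) |>.symm, Finset.sum_filter]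
    apply Finset.sum_congr rfl; intro g _
    by_cases hg : g ∈ N
    · rw [if_pos hg]
    · rw [if_neg hg]; simp only [extIdem, dif_neg hg, zero_mul]
  rw [h1]
  simp only [blockCoeff, finsum_mem_irr, classInner]
  simp only [Finset.mul_sum, Finset.sum_mul]
  rw [Finset.sum_comm]
  apply Finset.sum_congr rfl; intro φ _
  by_cases hφ : φ ∈ O
  · simp only [if_pos hφ, Finset.mul_sum]
    apply Finset.sum_congr rfl; intro n _
    ring
  · simp [if_neg hφ]

/-- the set of `G`-conjugates of `θ` -/
def conjOrbit (hN : N.Normal) (θ : IrrCharacter N) : Set (IrrCharacter N) :=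
  {φ | ∃ g : G, (φ : N → ℂ) = cjF hN θ g}

theorem conjOrbit_stable (hN : N.Normal) (θ : IrrCharacter N) : ConjStable hN (conjOrbit hN θ) := by
  intro t φ
  constructor
  · rintro ⟨g, hg⟩
    refine ⟨g * t⁻¹, ?_⟩
    have h1 : cjF hN (φ : N → ℂ) t = cjF hN θ g := hg
    rw [← cjF_cjF, ← h1, cjF_cjF, mul_inv_cancel, cjF_one]
  · rintro ⟨g, hg⟩
    refine ⟨g * t, ?_⟩
    show cjF hN (φ : N → ℂ) t = _
    rw [hg, cjF_cjF]

/-- `ω_χ` of the orbit idempotent of `θ` is `1` or `0` according as `θ` lies under `χ` or not. -/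
theorem omega_extIdem_conjOrbit (hN : N.Normal) (θ : IrrCharacter N) (χ : IrrCharacter G) :
    omega (χ : G → ℂ) (extIdem (conjOrbit hN θ)) =
      by classical exact
        if classInner (fun n : N => (χ : G → ℂ) n) (θ : N → ℂ) ≠ 0 then 1 else 0 := by
  classical
  have := finite_irrCharacter (G := N)
  have := Fintype.ofFinite (IrrCharacter N)
  have h10 := irr_one_ne_zero χ.2
  have hcl := irr_classFunction χ
  rw [omega, ← Finset.sum_div, sum_extIdem_mul]
  by_cases hθ : classInner (fun n : N => (χ : G → ℂ) n) (θ : N → ℂ) ≠ 0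
  · rw [if_pos hθ, div_eq_one_iff_eq h10]
    have hres : IsClassFunction N (fun n : N => (χ : G → ℂ) n) :=
      isClassFunction_of_isCharacter (isCharacter_restrict (isCharacter_of_isIrrCharacter χ.2) N)
    have h1 := congrFun (eq_sum_classInner_smul hres) 1
    rw [Finset.sum_apply] at h1
    have h2 : (χ : G → ℂ) 1 = (χ : G → ℂ) ((1 : N) : G) := rfl
    rw [h2, h1]
    apply Finset.sum_congr rfl; intro φ _
    by_cases hφ : φ ∈ conjOrbit hN θ
    · rw [if_pos hφ, Pi.smul_apply, smul_eq_mul, mul_comm]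
    · rw [if_neg hφ, Pi.smul_apply, smul_eq_mul,
        clifford_inner_zero hN χ.2 θ.2 hθ φ.2 (fun g hg => hφ ⟨g, hg⟩), zero_mul]
  · rw [if_neg hθ]
    push Not at hθ
    rw [Finset.sum_eq_zero, zero_div]
    intro φ _
    split_ifs with hφ
    · obtain ⟨g, hg⟩ := hφ
      rw [hg, clifford_inner_conj hN hcl, hθ, mul_zero]
    · rfl

/-- Characters in the same block lie over the same orbits of characters of a normal `p'`-subgroup. -/
theorem constituent_iff_of_sameBlock (hM : IsPModular p M) (hN : N.Normal)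
    (hpN : ¬ p ∣ Nat.card N) {χ ψ : IrrCharacter G}
    (h : SameBlock M (χ : G → ℂ) (ψ : G → ℂ)) (θ : IrrCharacter N) :
    classInner (fun n : N => (χ : G → ℂ) n) (θ : N → ℂ) ≠ 0 ↔
      classInner (fun n : N => (ψ : G → ℂ) n) (θ : N → ℂ) ≠ 0 := by
  classical
  have h1 := omega_sub_memLocalIdeal hM h
    (extIdem_classFunction hN (conjOrbit_stable hN θ))
    (extIdem_memLocalRing hM hpN (conjOrbit hN θ))
  rw [omega_extIdem_conjOrbit, omega_extIdem_conjOrbit] at h1
  by_cases h2 : classInner (fun n : N => (χ : G → ℂ) n) (θ : N → ℂ) ≠ 0 <;>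
  by_cases h3 : classInner (fun n : N => (ψ : G → ℂ) n) (θ : N → ℂ) ≠ 0
  · exact ⟨fun _ => h3, fun _ => h2⟩
  · rw [if_pos h2, if_neg h3, sub_zero] at h1
    exact absurd h1 (not_memLocalIdeal_one hM)
  · rw [if_neg h2, if_pos h3, zero_sub] at h1
    have := memLocalIdeal_neg h1
    rw [neg_neg] at this
    exact absurd this (not_memLocalIdeal_one hM)
  · exact ⟨fun h => absurd h h2, fun h => absurd h h3⟩

end Cfsg.Agent.Lib.Helper84
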