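import Mathlib
import Cfsg.Prelude.Def_Characters
import Cfsg.Agent.Lib.Helper79.GaloisChar
import Cfsg.Agent.Lib.Helper82.Linear
import Cfsg.Agent.Lib.Helper82.Constituent
import Cfsg.Agent.Lib.Helper77.GlaubCore

/-!
# Orbits of a character under the power maps `g ↦ g ^ k`, `k` prime to `p`

* `Orb p φ`: the set of all `g ↦ φ (g ^ k)`, `k` prime to `p`;
* `ncard_Orb_le_finrank`: for a character of a `p`-group the orbit has at most
  `[ℚ(χ) : ℚ]` elements;
* `le_ncard_Orb_of_linear`: a faithful linear character of a group of order `p ^ a` has an orbit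
  of size at least `p ^ (a - 1) * (p - 1)`.
-/

set_option autoImplicit false

namespace Cfsg.Agent.Lib.Helper84

open Cfsg Cfsg.Agent.Lib.Helper82

/-- power twist -/
def pw {Q : Type*} [Group Q] (k : ℕ) (φ : Q → ℂ) : Q → ℂ := fun g => φ (g ^ k)

/-- the orbit under the power twists prime to `p` -/
def Orb (p : ℕ) {Q : Type*} [Group Q] (φ : Q → ℂ) : Set (Q → ℂ) :=
  {ψ | ∃ k : ℕ, k.Coprime p ∧ ψ = pw k φ}

theorem Orb_finite (p : ℕ) {Q : Type*} [Group Q] [Finite Q] (φ : Q → ℂ) : (Orb p φ).Finite := by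
  have hn : 0 < Nat.card Q := Nat.card_pos
  apply Set.Finite.subset (Set.finite_range (fun k : Fin (Nat.card Q) => pw (k : ℕ) φ))
  rintro ψ ⟨k, -, rfl⟩
  refine ⟨⟨k % Nat.card Q, Nat.mod_lt _ hn⟩, ?_⟩
  funext g
  show φ (g ^ (k % Nat.card Q)) = φ (g ^ k)
  congr 1
  exact pow_mod_natCard g k

theorem self_mem_Orb (p : ℕ) {Q : Type*} [Group Q] (φ : Q → ℂ) : φ ∈ Orb p φ :=
  ⟨1, Nat.coprime_one_left p, by funext g; simp [pw]⟩

/-- the orbit is not larger than the degree of the field of values -/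
theorem ncard_Orb_le_finrank {p a : ℕ} {Q : Type*} [Group Q] [Finite Q]
    (hQ : Nat.card Q = p ^ a) {χ : Q → ℂ} (hχ : IsCharacter Q χ) :
    (Orb p χ).ncard ≤ Module.finrank ℚ (IntermediateField.adjoin ℚ (Set.range χ)) := by
  classical
  set K := IntermediateField.adjoin ℚ (Set.range χ) with hK
  have hfd : FiniteDimensional ℚ K := by
    apply IntermediateField.finiteDimensional_adjoin
    rintro _ ⟨g, rfl⟩
    exact (Cfsg.Agent.Lib.Helper77.isCharacter_isIntegral hχ g).tower_top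
  rw [← AlgHom.card ℚ K ℂ, ← Nat.card_eq_fintype_card, ← Nat.card_coe_set_eq]
  have hex : ∀ ψ : Orb p χ, ∃ τ : ℂ ≃+* ℂ, ∀ g : Q, τ (χ g) = (ψ : Q → ℂ) g := by
    rintro ⟨ψ, k, hk, rfl⟩
    have hk' : k.Coprime (Nat.card Q) := by rw [hQ]; exact hk.pow_right a
    obtain ⟨τ, -, hτ⟩ := Cfsg.Agent.Lib.Helper79.exists_galois (Nat.card Q) k Nat.card_pos hk'
    exact ⟨τ, fun g => hτ Q χ hχ g pow_card_eq_one'⟩
  choose τ hτ using hex
  apply Nat.card_le_card_of_injective
    (fun ψ : Orb p χ => ((τ ψ : ℂ →+* ℂ).toRatAlgHom).comp K.val)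
  intro ψ ψ' h
  apply Subtype.ext
  funext g
  have hg : χ g ∈ K := IntermediateField.subset_adjoin ℚ _ ⟨g, rfl⟩
  have := congrArg (fun f : K →ₐ[ℚ] ℂ => f ⟨χ g, hg⟩) h
  simp only [AlgHom.comp_apply] at this
  rw [← hτ ψ g, ← hτ ψ' g]
  exact this

/-- a faithful linear character of a group of order `p ^ a` has a large orbit -/
theorem le_ncard_Orb_of_linear {p a : ℕ} (hp : p.Prime) (ha : 0 < a) {Q : Type*} [Group Q]
    [Finite Q] (hQ : Nat.card Q = p ^ a) {χ : Q → ℂ} (hχ : IsCharacter Q χ) (h1 : χ 1 = 1)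
    (hf : ∀ g, χ g = χ 1 → g = 1) : p ^ (a - 1) * (p - 1) ≤ (Orb p χ).ncard := by
  classical
  have hinj : Function.Injective (linHom χ hχ h1) := by
    rw [injective_iff_map_eq_one]
    intro g hg
    apply hf
    rw [h1]
    exact hg
  have hcyc : IsCyclic Q := isCyclic_of_subgroup_isDomain (linHom χ hχ h1) hinj
  obtain ⟨x, hx⟩ := hcyc.exists_generator
  have hord : orderOf x = p ^ a := by
    rw [← hQ]; exact orderOf_eq_card_of_forall_mem_zpowers hx
  have : NeZero (p ^ a) := ⟨pow_ne_zero _ hp.ne_zero⟩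
  rw [← Nat.totient_prime_pow hp ha, ← ZMod.card_units_eq_totient, ← Nat.card_eq_fintype_card,
    ← Nat.card_coe_set_eq]
  have := (Orb_finite p χ).to_subtype
  apply Nat.card_le_card_of_injective (fun u : (ZMod (p ^ a))ˣ =>
    (⟨pw (u : ZMod (p ^ a)).val χ, (u : ZMod (p ^ a)).val, by
      have := ZMod.val_coe_unit_coprime u
      exact Nat.Coprime.coprime_dvd_right (dvd_pow_self p ha.ne') this, rfl⟩ : Orb p χ))
  intro u v huv
  have h2 : χ (x ^ (u : ZMod (p ^ a)).val) = χ (x ^ (v : ZMod (p ^ a)).val) :=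
    congrFun (congrArg Subtype.val huv) x
  have h3 : x ^ (u : ZMod (p ^ a)).val = x ^ (v : ZMod (p ^ a)).val := hinj h2
  rw [pow_inj_mod, hord, Nat.mod_eq_of_lt (ZMod.val_lt _), Nat.mod_eq_of_lt (ZMod.val_lt _)] at h3
  exact Units.ext (ZMod.val_injective _ h3)

end Cfsg.Agent.Lib.Helper84
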