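import Mathlib
import Cfsg.Agent.Lib.Helper84.PowOrb
import Cfsg.Agent.S0176
import Cfsg.Agent.Lib.Helper5.Clifford
import Cfsg.Agent.Lib.Helper5.IndDeg
import Cfsg.Agent.Lib.Helper19.GramRigid
import Cfsg.Agent.Lib.Helper13.Schmidt2
import Cfsg.Agent.Lib.Helper82.CharKer

/-!
# Characters of `p`-groups induced from subgroups of index `p`, and power twists
-/

set_option autoImplicit false

namespace Cfsg.Agent.Lib.Helper84

open Cfsg Cfsg.Agent.Lib.Helper82 Cfsg.Agent.Lib.Helper5 Cfsg.Agent.Lib.Helper19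
  Cfsg.Agent.Lib.Helper20

universe u

theorem isChar_eq_zero_of_one {G : Type*} [Group G] {Y : G → ℂ} (hY : IsCharacter G Y)
    (h : Y 1 = 0) : Y = 0 := by
  obtain ⟨n, ρ, rfl⟩ := hY
  rw [Representation.char_one] at h
  have hn : n = 0 := by simpa using h
  subst hn
  funext g
  show LinearMap.trace ℂ _ (ρ g) = 0
  have : ρ g = 0 := Subsingleton.elim _ _
  rw [this, map_zero]

theorem irr_of_ind_irr {G : Type*} [Group G] [Fintype G] (H : Subgroup G) {ψ : H → ℂ}
    (hψ : IsCharacter H ψ) (hind : IsIrrCharacter G (indFun H ψ)) : IsIrrCharacter H ψ := by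
  classical
  have := Fintype.ofFinite H
  have hχ1 : indFun H ψ 1 ≠ 0 := isIrr_one_ne_zero hind
  have hd := charDegree_indFun H hψ
  have hψ1 : ψ 1 ≠ 0 := by
    intro h
    apply hχ1
    rw [isChar_one_eq (isIrr_isChar hind), hd]
    have : charDegree ψ = 0 := by
      have h2 := isChar_one_eq hψ
      rw [h] at h2
      exact_mod_cast h2.symm
    rw [this]; simp
  obtain ⟨ψ₁, hψ₁, hne⟩ := exists_constituent hψ hψ1
  obtain ⟨Δ, hΔ, hsum⟩ := exists_add_of_constituent hψ hψ₁ hne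
  have hX : IsCharacter G (indFun H ψ₁) := isCharacter_indFun H ψ₁ (isIrr_isChar hψ₁)
  have hY : IsCharacter G (indFun H Δ) := isCharacter_indFun H Δ hΔ
  have hsum' : indFun H ψ = indFun H ψ₁ + indFun H Δ := by rw [hsum, indFun_add]
  have hX1 : indFun H ψ₁ 1 ≠ 0 := by
    rw [isChar_one_eq hX, charDegree_indFun H (isIrr_isChar hψ₁)]
    have h1 : charDegree ψ₁ ≠ 0 := by
      intro h0
      have h2 := isChar_one_eq (isIrr_isChar hψ₁)
      rw [h0] at h2
      exact isIrr_one_ne_zero hψ₁ (by simpa using h2)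
    have h2 : H.index ≠ 0 := Subgroup.index_ne_zero_of_finite
    exact_mod_cast mul_ne_zero h2 h1
  obtain ⟨ξ, hξ, hξne⟩ := exists_constituent hX hX1
  have h3 : classInner (indFun H ψ) ξ ≠ 0 := by
    rw [hsum', classInner_add_left]
    intro h0
    exact hξne (classInner_nat_add_eq_zero (isCharacter_classInner_nat hX hξ)
      (isCharacter_classInner_nat hY hξ) h0)
  have h4 : indFun H ψ = ξ := by
    by_contra hne'
    exact h3 (classInner_irr_ne hind hξ hne')
  rw [← h4] at hξne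
  obtain ⟨Δ', hΔ', hsum2⟩ := exists_add_of_constituent hX hind hξne
  have h5 : Δ' 1 + indFun H Δ 1 = 0 := by
    have := congrFun hsum' 1
    rw [hsum2] at this
    simp only [Pi.add_apply] at this
    linear_combination -this
  have h6 : indFun H Δ 1 = 0 := by
    rw [add_comm] at h5
    exact classInner_nat_add_eq_zero ⟨_, isChar_one_eq hY⟩ ⟨_, isChar_one_eq hΔ'⟩ h5
  have h7 : Δ 1 = 0 := by
    rw [isChar_one_eq hY, charDegree_indFun H hΔ] at h6
    have h2 : H.index ≠ 0 := Subgroup.index_ne_zero_of_finite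
    have h8 : H.index * charDegree Δ = 0 := by exact_mod_cast h6
    rw [isChar_one_eq hΔ]
    rcases Nat.mul_eq_zero.mp h8 with h | h
    · exact absurd h h2
    · rw [h]; simp
  rw [hsum, isChar_eq_zero_of_one hΔ h7, add_zero]
  exact hψ₁

theorem pow_mem_iff_of_pgroup {p k : ℕ} {P : Type*} [Group P] (hP : IsPGroup p P)
    (hk : k.Coprime p) (S : Subgroup P) (z : P) : z ^ k ∈ S ↔ z ∈ S := by
  constructor
  · intro h
    obtain ⟨j, hj⟩ := hP z
    have h1 : k.Coprime (orderOf z) := by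
      apply Nat.Coprime.coprime_dvd_right (orderOf_dvd_of_pow_eq_one hj)
      exact hk.pow_right j
    obtain ⟨m, hm⟩ := exists_pow_eq_self_of_coprime h1
    rw [← hm]
    exact pow_mem h m
  · intro h
    exact pow_mem h k

theorem indFun_pw {p k : ℕ} {P : Type*} [Group P] [Fintype P] (hP : IsPGroup p P)
    (H : Subgroup P) (ψ : H → ℂ) (hk : k.Coprime p) :
    indFun H (pw k ψ) = pw k (indFun H ψ) := by
  funext g
  show indFun H (pw k ψ) g = indFun H ψ (g ^ k)
  rw [indFun_apply, indFun_apply]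
  congr 1
  apply Finset.sum_congr rfl
  intro x _
  have e : x⁻¹ * g ^ k * x = (x⁻¹ * g * x) ^ k := by
    have := conj_pow (a := x⁻¹) (b := g) (i := k)
    rw [inv_inv] at this
    exact this.symm
  rw [e]
  generalize x⁻¹ * g * x = z
  by_cases hz : z ∈ H
  · rw [extendByZero_of_mem H _ hz, extendByZero_of_mem H _ (pow_mem hz k)]
    rfl
  · have h2 : z ^ k ∉ H := fun h => hz ((pow_mem_iff_of_pgroup hP hk H z).mp h)
    rw [extendByZero_of_not_mem H _ hz, extendByZero_of_not_mem H _ h2]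

theorem pw_ker_iff {p k : ℕ} {Q : Type*} [Group Q] [Finite Q] (hQ : IsPGroup p Q)
    (hk : k.Coprime p) {ψ : Q → ℂ} (hψ : IsCharacter Q ψ) (g : Q) :
    pw k ψ g = pw k ψ 1 ↔ ψ g = ψ 1 := by
  have := pow_mem_iff_of_pgroup hQ hk (charKer ψ hψ) g
  rw [mem_charKer, mem_charKer] at this
  show ψ (g ^ k) = ψ (1 ^ k) ↔ _
  rw [one_pow]
  exact this

theorem eq_one_of_forall_conj_mem_ker {P : Type*} [Group P] [Fintype P] (H : Subgroup P)
    {ψ : H → ℂ} (hf : ∀ g, indFun H ψ g = indFun H ψ 1 → g = 1) (g : P)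
    (h : ∀ x : P, ∃ hx : x⁻¹ * g * x ∈ H, ψ ⟨_, hx⟩ = ψ 1) : g = 1 := by
  apply hf
  rw [indFun_apply, indFun_apply]
  congr 1
  apply Finset.sum_congr rfl
  intro x _
  obtain ⟨hx, hx2⟩ := h x
  have e : x⁻¹ * 1 * x = 1 := by group
  rw [e, extendByZero_of_mem H _ hx, extendByZero_of_mem H _ H.one_mem, hx2]
  rfl

theorem card_le_relIndex_pow {P : Type*} [Group P] [Finite P] (H K : Subgroup P) [hH : H.Normal]
    (hHK : ∀ h ∈ H, ∀ k ∈ K, h⁻¹ * k * h ∈ K)
    (hcore : ∀ g, (∀ x : P, x⁻¹ * g * x ∈ K) → g = 1) :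
    Nat.card H ≤ (K.relIndex H) ^ H.index := by
  classical
  have := Fintype.ofFinite (P ⧸ H)
  let f : P ⧸ H → Subgroup P := fun q => K.comap (MulAut.conj (q.out)⁻¹).toMonoidHom
  have hmem : ∀ q g, g ∈ f q ↔ (q.out)⁻¹ * g * q.out ∈ K := by
    intro q g
    show (MulAut.conj (q.out)⁻¹) g ∈ K ↔ _
    rw [MulAut.conj_apply, inv_inv]
  have hbot : (⨅ q, f q) = ⊥ := by
    rw [eq_bot_iff]
    intro g hg
    rw [Subgroup.mem_iInf] at hg
    rw [Subgroup.mem_bot]
    apply hcore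
    intro x
    have h1 := (hmem _ g).mp (hg (x : P ⧸ H))
    have h2 : ((x : P ⧸ H).out)⁻¹ * x ∈ H := by
      rw [← QuotientGroup.eq]
      exact QuotientGroup.out_eq' _
    have h3 := hHK _ h2 _ h1
    have e : (((x : P ⧸ H).out)⁻¹ * x)⁻¹ * (((x : P ⧸ H).out)⁻¹ * g * (x : P ⧸ H).out) *
        (((x : P ⧸ H).out)⁻¹ * x) = x⁻¹ * g * x := by group
    rwa [e] at h3
  have h1 := Subgroup.relIndex_iInf_le (L := H) f
  rw [hbot, Subgroup.relIndex_bot_left] at h1
  have h2 : ∀ q, (f q).relIndex H = K.relIndex H := by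
    intro q
    show (K.comap (MulAut.conj (q.out)⁻¹).toMonoidHom).relIndex H = _
    rw [Subgroup.relIndex_comap]
    congr 1
    ext g
    rw [Subgroup.mem_map]
    constructor
    · rintro ⟨y, hy, rfl⟩
      exact hH.conj_mem y hy _
    · intro hg
      refine ⟨(q.out) * g * (q.out)⁻¹, hH.conj_mem g hg _, ?_⟩
      show (MulAut.conj (q.out)⁻¹) _ = g
      rw [MulAut.conj_apply]
      group
  simp only [h2, Finset.prod_const, Finset.card_univ] at h1
  have h3 : Fintype.card (P ⧸ H) = H.index := by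
    rw [← Nat.card_eq_fintype_card]; rfl
  rwa [h3] at h1

theorem exists_conj_of_ind_eq {P : Type*} [Group P] [Fintype P] {H : Subgroup P} (hN : H.Normal)
    {φ₁ φ₂ : H → ℂ} (h1 : IsIrrCharacter H φ₁) (h2 : IsIrrCharacter H φ₂)
    (hirr : IsIrrCharacter P (indFun H φ₁)) (heq : indFun H φ₁ = indFun H φ₂) :
    ∃ y : P, φ₂ = cjF hN φ₁ y := by
  classical
  have := Fintype.ofFinite H
  have hcl := isClassFunction_of_isCharacter (isCharacter_of_isIrrCharacter hirr)
  have key : ∀ φ : H → ℂ, indFun H φ₁ = indFun H φ →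
      classInner (fun n : H => indFun H φ₁ n) φ ≠ 0 := by
    intro φ hφ h0
    have h3 := frobenius_reciprocity H φ (indFun H φ₁) hcl
    rw [← hφ, classInner_irr_self hirr, ← classInner_conj_symm, h0] at h3
    simp at h3
  by_contra hcon
  push Not at hcon
  exact key φ₂ heq (clifford_inner_zero hN hirr h1 (key φ₁ rfl) h2 hcon)

theorem cjF_mul_mem {P : Type*} [Group P] {H : Subgroup P} (hN : H.Normal) {φ : H → ℂ}
    (hφ : IsClassFunction H φ) (y h : P) (hh : h ∈ H) : cjF hN φ (h * y) = cjF hN φ y := by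
  funext n
  rw [cjF_apply, cjF_apply]
  have := hφ ⟨y * n * y⁻¹, hN.conj_mem n n.2 y⟩ ⟨h, hh⟩
  rw [← this]
  congr 1
  apply Subtype.ext
  show h * y * n * (h * y)⁻¹ = h * (y * n * y⁻¹) * h⁻¹
  group

theorem exists_index_p_induced {p a : ℕ} (hp : p.Prime) {P : Type u} [Group P] [Fintype P]
    (hP : Nat.card P = p ^ a) {χ : P → ℂ} (hχ : IsIrrCharacter P χ) (hnl : χ 1 ≠ 1) :
    ∃ (H : Subgroup P) (ψ : H → ℂ), H.Normal ∧ IsCoatom H ∧ H.index = p ∧ IsIrrCharacter H ψ ∧
      indFun H ψ = χ := by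
  classical
  have : Fact p.Prime := ⟨hp⟩
  have hpg : IsPGroup p P := IsPGroup.of_card hP
  have hnil : Group.IsNilpotent P := hpg.isNilpotent
  have hχ' := hχ
  obtain ⟨m, σ, hσ, rfl⟩ := hχ
  obtain ⟨T, ψT, hT, hψT, hind⟩ := Cfsg.Agent.S0176.exists_proper_induced σ hσ hnl
  obtain ⟨H, hH, hTH⟩ := (eq_top_or_exists_le_coatom T).resolve_left hT
  have hHn : H.Normal := Subgroup.NormalizerCondition.normal_of_coatom H
    Group.normalizerCondition_of_isNilpotent hH
  have hidx : H.index = p := by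
    have h1 := Cfsg.Agent.Lib.Helper13.prime_index_of_normal_coatom H hH
    have h2 : H.index ∣ p ^ a := by rw [← hP]; exact H.index_dvd_card
    exact (Nat.prime_dvd_prime_iff_eq h1 hp).mp (h1.dvd_of_dvd_pow h2)
  have := Fintype.ofFinite H
  have htr := indFun_trans T H hTH ψT
  have hc : IsCharacter (T.subgroupOf H)
      (fun x => ψT ⟨((x : H) : P), Subgroup.mem_subgroupOf.mp x.2⟩) :=
    isCharacter_comp_hom (isCharacter_of_isIrrCharacter hψT)
      (Subgroup.subgroupOfEquivOfLe hTH).toMonoidHom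
  have hc2 := isCharacter_indFun (T.subgroupOf H) _ hc
  refine ⟨H, _, hHn, hH, hidx, ?_, htr.trans hind⟩
  apply irr_of_ind_irr H hc2
  rw [htr, hind]
  exact hχ'

end Cfsg.Agent.Lib.Helper84
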